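import Mathlib
import Cfsg.Agent.Lib.StdExc.DihA
import Cfsg.Agent.Lib.ZStar.Main
import Cfsg.Agent.Lib.FT.OddOrder

/-!
# The exceptional configuration: the semidihedral frame
-/

set_option autoImplicit false

namespace CfsgLib.StdExc

open Subgroup Cfsg CfsgLib.Tech
open scoped Pointwise commutatorElement

variable {G : Type*} [Group G] [Finite G] {A P S : Subgroup G} {t s b c q y x : G} {m : ℕ}

omit [Finite G] in
theorem cent_of_comm (hA : ⁅A, A⁆ = A) (hx : x ∈ normalizer (A : Set G))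
    (h : ∀ a ∈ A, x * a * x⁻¹ * a⁻¹ ∈ centralizer (A : Set G)) : x ∈ centralizer (A : Set G) := by
  have : ⁅A, A⁆ ≤ centralizer {x} := commutator_le.2 fun a ha b hb => by
    have hw : x * b * x⁻¹ * b⁻¹ ∈ A := mul_mem (conj_mem_of_mem_normalizer hx hb) (inv_mem hb)
    have h1 : Commute _ _ := h a ha _ (mul_mem (mul_mem (mul_mem ha hw) hb) (inv_mem ha))
    have h2 : Commute _ _ := h b hb _ (mul_mem (mul_mem hb (inv_mem ha)) (inv_mem hb))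
    rw [mem_C, Commute.symm_iff, Commute, SemiconjBy, ← mul_inv_eq_iff_eq_mul, commutatorElement_def]
    calc _ = x * a * x⁻¹ * a⁻¹ * (a * (x * b * x⁻¹ * b⁻¹) * b * a⁻¹) * (x * a * x⁻¹ * a⁻¹)⁻¹ * b⁻¹ *
          (x * b * x⁻¹ * b⁻¹)⁻¹ := by group
      _ = a * (x * b * x⁻¹ * b⁻¹ * (b * a⁻¹ * b⁻¹) * (x * b * x⁻¹ * b⁻¹)⁻¹) := by
          rw [h1.symm.mul_inv_cancel]; group
      _ = _ := by rw [h2.symm.mul_inv_cancel]; group
  exact fun a ha => mem_C.1 (this (hA.symm ▸ ha))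

omit [Finite G] in
theorem sq_root (qq : q * q = t) (tt : t * t = 1) (t1 : t ≠ 1) (hx : x ∈ zpowers q) (xx : x * x = 1) :
    x = 1 ∨ x = t := by
  have h1 : ∀ j : ℤ, t ^ (2 * j) = 1 := fun j => by rw [zpow_mul, zpow_two, tt, one_zpow]
  obtain ⟨i, rfl⟩ := mem_zpowers_iff.1 hx
  rcases Int.even_or_odd' i with ⟨j, rfl | rfl⟩
  · rw [zpow_mul, zpow_two, qq]
    rcases Int.even_or_odd' j with ⟨l, rfl | rfl⟩
    exacts [Or.inl (h1 l), Or.inr (by rw [zpow_add_one, h1, one_mul])]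
  · rw [← zpow_add, ← two_mul, zpow_mul, zpow_two, qq, zpow_add_one, h1, one_mul] at xx
    exact absurd xx t1

theorem Exc.za (e : Exc A P t) (hS : IsSylowIn 2 S (centralizer {t})) (hx : x ∈ S) (h1 : x * x ∈ A)
    (h2 : x * x ∈ centralizer (A : Set G)) (h3 : x ∉ centralizer (A : Set G)) :
    ∃ a ∈ A, a * x * a⁻¹ ∈ S ∧ a * x * a⁻¹ * x⁻¹ ∉ centralizer (A : Set G) := by
  by_contra hn
  push Not at hn
  have SN : S ≤ normalizer (A : Set G) := fun z hz => e.nA z (mem_C.1 (hS.le hz))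
  have AH : A ≤ centralizer {t} := fun a ha => mem_C.2 (e.le a (e.AP ha))
  obtain ⟨X, hX⟩ : ∃ X, X = A ⊔ zpowers x := ⟨_, rfl⟩
  have AX : A ≤ X := hX ▸ le_sup_left
  have xX : x ∈ X := hX ▸ mem_sup_right (mem_zpowers x)
  have dec : ∀ g ∈ X, ∃ a ∈ A, ∃ i : ℤ, g = a * x ^ i := fun g hg => by
    rw [hX, ← SetLike.mem_coe, coe_mul_of_right_le_normalizer_left _ _ (zpowers_le.2 (SN hx))] at hg
    obtain ⟨a, ha, _, ⟨i, rfl⟩, rfl⟩ := hg
    exact ⟨a, ha, i, rfl⟩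
  have SX : IsSylowIn 2 (S ⊓ X) X := isSylowIn_of_maximal hS.pgroup.to_inf_left inf_le_right fun R hR r1 r2 r hr => by
    obtain ⟨a, ha, i, rfl⟩ := dec r (r2 hr)
    have := (hS.inf_of_le_normalizer fun h hh => e.nA h (mem_C.1 hh)).eq_of_le (Q := R ⊓ A) hR.to_inf_left
      (le_inf ((inf_le_inf_left _ AX).trans r1) inf_le_right) (le_inf (inf_le_right.trans AH) inf_le_right)
    exact ⟨mul_mem (this.le ⟨(mul_mem_cancel_right (zpow_mem (r1 ⟨hx, xX⟩) i)).1 hr, ha⟩).1 (zpow_mem hx i), r2 hr⟩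
  let C := (S ⊓ A ⊓ centralizer (A : Set G)).subgroupOf X
  have : C.Normal := ⟨fun n hn g => by
    obtain ⟨a, ha, i, hg⟩ := dec g g.2
    have h4 := zpow_mem hx i
    have h5 : x ^ i * n * (x ^ i)⁻¹ ∈ centralizer (A : Set G) :=
      conj_mem_of_mem_normalizer (Core.normalizer_le_normalizer_centralizer _ (SN h4)) hn.2
    have h6 : (g * n * (g : G)⁻¹ : G) = x ^ i * n * (x ^ i)⁻¹ := by
      rw [← Commute.mul_inv_cancel (h5 a ha), hg]; group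
    change (g * n * (g : G)⁻¹ : G) ∈ S ⊓ A ⊓ centralizer (A : Set G)
    rw [h6]
    exact ⟨⟨S.mul_mem (S.mul_mem h4 hn.1.1) (S.inv_mem h4), conj_mem_of_mem_normalizer (SN h4) hn.1.2⟩, h5⟩⟩
  have iso : IsIsolatedInvolution (QuotientGroup.mk' C ⟨x, xX⟩) := by
    refine ZStar.isIsolatedInvolution_of_sylow (SX.toSylow.mapSurjective (QuotientGroup.mk'_surjective C))
      (orderOf_eq_prime ?_ fun h => h3 ((QuotientGroup.eq_one_iff _).1 h).2) ⟨_, ⟨hx, xX⟩, rfl⟩ fun g hg => ?_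
    · rw [← map_pow, pow_two]
      exact (QuotientGroup.eq_one_iff _).2 ⟨⟨mul_mem hx hx, h1⟩, h2⟩
    · obtain ⟨g, rfl⟩ := QuotientGroup.mk'_surjective C g
      rw [← map_inv, ← map_mul, ← map_mul] at hg ⊢
      obtain ⟨z, hz, hg⟩ := hg
      obtain ⟨a, ha, i, hi⟩ := dec g g.2
      have h4 : (g * x * (g : G)⁻¹ : G) = a * x * a⁻¹ := by rw [hi]; group
      have h5 : a * x * a⁻¹ ∈ S := h4 ▸ (S.mul_mem_cancel_left (S.inv_mem hz.1)).1 (QuotientGroup.eq.1 hg).1.1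
      refine QuotientGroup.eq_iff_div_mem.2 ?_
      change (g * x * (g : G)⁻¹ / x : G) ∈ S ⊓ A ⊓ centralizer (A : Set G)
      rw [h4, div_eq_mul_inv]
      exact mem_inf.2 ⟨mem_inf.2 ⟨mul_mem h5 (inv_mem hx), by
        simpa [mul_assoc] using mul_mem ha (conj_mem_of_mem_normalizer (SN hx) (inv_mem ha))⟩, hn a ha h5⟩
  let N := (pPrimeCore 2 (X ⧸ C)).comap (QuotientGroup.mk' C)
  rcases Comp.qs_sub_normal e.qs (N := N.map X.subtype ⊓ A) inf_le_right (fun a ha => mem_normalizer_of_forall (by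
    rintro _ ⟨⟨n, hn, rfl⟩, h4⟩
    exact ⟨⟨_, (inferInstance : N.Normal).conj_mem n hn ⟨a, AX ha⟩, rfl⟩,
      A.mul_mem (A.mul_mem ha h4) (A.inv_mem ha)⟩)) with h | h
  · have := Comp.eq_bot_of_perfect_of_le_solvable (L := (A.subgroupOf X).map (QuotientGroup.mk' C))
      (by rw [← map_commutator, Comp.qs_sub_perfect ((Comp.qs_subgroupOf_iff AX).2 e.qs)])
      (map_le_iff_le_comap.2 fun a ha => by
        obtain ⟨n, hn, h4⟩ := (h.ge ha).1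
        exact Subtype.ext h4 ▸ hn) (FT.odd_order_solvable (Core.odd_card_oddCore _))
    rw [Subgroup.map_eq_bot_iff, QuotientGroup.ker_mk'] at this
    exact Comp.qs_sub_not_le_centralizer e.qs fun a ha => (this (x := ⟨a, AX ha⟩) ha).2
  · exact h3 (cent_of_comm (Comp.qs_sub_perfect e.qs) (SN hx) fun a ha => h
      ⟨⟨⟨x, xX⟩ * ⟨a, AX ha⟩ * ⟨x, xX⟩⁻¹ * ⟨a, AX ha⟩⁻¹, ZStar.zstar iso (QuotientGroup.mk' C ⟨a, AX ha⟩), rfl⟩,
        A.mul_mem (conj_mem_of_mem_normalizer (SN hx) ha) (A.inv_mem ha)⟩)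

namespace Dh

variable (D : Dh t S s y m) (e : Exc A P t)
include D e

omit [Finite G] in
theorem gen (hb : b ∈ zpowers y) (hy : y ∈ zpowers b) : Dh t S s b m where
  syl := D.syl
  sS := D.sS
  yS := D.zle hb
  gs := D.gs
  gy := D.gm e hb
  ord := (Nat.dvd_antisymm (orderOf_dvd_of_mem_zpowers hb) (orderOf_dvd_of_mem_zpowers hy)).trans D.ord
  all x hx gx := by
    obtain ⟨j, rfl⟩ := D.all x hx gx
    obtain ⟨i, hi⟩ := mem_zpowers_iff.1 (zpow_mem hy j)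
    exact ⟨i, by rw [hi]⟩

theorem comm_cl (hc : c ∈ zpowers y) (cc : c * c = t) {h k : G} (hh : Commute h t) (hk : Commute k t)
    (cm : Commute (h * c * h⁻¹) (k * c * k⁻¹)) : k * c * k⁻¹ ∈ zpowers (h * c * h⁻¹) := by
  have key : ∀ h, Commute h t → Commute (h * c * h⁻¹) c → h * c * h⁻¹ ∈ zpowers c := fun h hh cm => by
    have sq : ∀ h, Commute h t → h * c * h⁻¹ * (h * c * h⁻¹) = t := fun h hh => by
      rw [conj_mul, cc, hh.mul_inv_cancel]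
    obtain ⟨n, ⟨n1, n2⟩, hn⟩ := (D.syl.of_le (le_inf D.syl.le (D.le_norm hc)) inf_le_left).exists_conj_mem
      (x := h * c * h⁻¹) (mem_inf.2 ⟨mem_C.2 (comm_cj hh (D.cm (D.zle hc))), by
        rw [mem_normalizer_iff_cj, cj_zpowers, cm.mul_inv_cancel]⟩)
      (isPGroup_zpowers_of_pow (k := 2) (by
        rw [show 2 ^ 2 = 2 * 2 from rfl, pow_mul, pow_two, pow_two, sq h hh, e.sq]))
    have h1 : n * (h * c * h⁻¹) * n⁻¹ = n * h * c * (n * h)⁻¹ := by group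
    have h2 := sq _ ((mem_C.1 n1).mul_left hh)
    rcases D.di e hc (cc ▸ e.ne) ((mem_C.1 n1).mul_left hh) h1 hn (by rw [h1, h2]; exact D.tz e) with h3 | h3
    · have : n * (h * c * h⁻¹) * n⁻¹ ∈ zpowers c := by
        rcases D.eq_or e h3 hc (by rw [h1, h2, cc]) with h4 | h4 <;> rw [h4]
        exacts [mem_zpowers c, cc ▸ mul_mem (mem_zpowers c) (mul_mem (mem_zpowers c) (mem_zpowers c))]
      simpa [mul_assoc] using conj_mem_of_mem_normalizer' n2 this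
    · obtain ⟨i, hi⟩ := mem_zpowers_iff.1 (zpowers_le.2 hc (conj_mem_of_mem_normalizer n2 (mem_zpowers c)))
      have h4 := inv_zpow_cj h3.2.1 i
      rw [zpow_neg, hi, show n * (h * c * h⁻¹) * n⁻¹ * (n * c * n⁻¹) * (n * (h * c * h⁻¹) * n⁻¹)⁻¹ =
        n * (h * c * h⁻¹ * c * (h * c * h⁻¹)⁻¹) * n⁻¹ by group, cm.mul_inv_cancel, ← mul_eq_one_iff_eq_inv,
        sq n (mem_C.1 n1)] at h4
      exact absurd h4 e.ne
  rw [← cj_zpowers, mem_cj]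
  have := key (h⁻¹ * k) (hh.inv_left.mul_left hk) (by simpa [mul_assoc] using comm_conj.1 cm.symm)
  simpa [mul_assoc] using this

theorem four (hc : c ∈ zpowers y) (cc : c * c = t) (qS : q ∈ S) (qy : q ∉ zpowers y)
    (hq : ∀ j : ℤ, ∃ h, Commute h t ∧ q * y ^ j = h * c * h⁻¹) {h : G} (hh : Commute h t) (hx : x = h * c * h⁻¹)
    (xS : x ∈ S) : x ∈ zpowers y ∨ ∃ j : ℤ, x = q * y ^ j := by
  have sq : ∀ {x h}, Commute h t → x = h * c * h⁻¹ → x * x = t := fun hh hx => by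
    rw [hx, conj_mul, cc, hh.mul_inv_cancel]
  refine (D.di e hc (cc ▸ e.ne) hh hx xS (sq hh hx ▸ D.tz e)).imp id fun ⟨xx, _, i', ⟨a', hi'⟩, xs⟩ => ?_
  obtain ⟨k, hk, k1⟩ := hq 0
  rw [zpow_zero, mul_one] at k1
  obtain ⟨-, qi, i, ⟨a, hi⟩, qs⟩ := (D.di e hc (cc ▸ e.ne) hk k1 qS (sq hk k1 ▸ D.tz e)).resolve_left qy
  obtain ⟨k, hk, k1⟩ := hq (a' - a)
  have rs : q * y ^ (a' - a) * s * (q * y ^ (a' - a))⁻¹ = x * s * x⁻¹ := by
    calc _ = q * (y ^ (a' - a) * s * (y ^ (a' - a))⁻¹) * q⁻¹ := by group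
      _ = _ := by rw [inv_cj_zpow (D.inv e), ← conj_mul, qs, inv_zpow_cj qi, xs, hi, hi']; group
  have rS : q * y ^ (a' - a) ∈ S := mul_mem qS (zpow_mem D.yS _)
  have rr := sq hk k1
  have fin : x = q * y ^ (a' - a) ∨ x = q * y ^ (a' - a) * t → ∃ j : ℤ, x = q * y ^ j := by
    rintro (h | h)
    exacts [⟨_, h⟩, ⟨a' - a + (2 ^ m : ℕ), by rw [h, ← D.tpow e, zpow_add, zpow_natCast, mul_assoc]⟩]
  generalize q * y ^ (a' - a) = r at k1 rs rS rr fin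
  obtain ⟨u, rfl⟩ : ∃ u, x = r * u := ⟨r⁻¹ * x, by group⟩
  have uS : u ∈ S := (mul_mem_cancel_left rS).1 xS
  have us : Commute u s := mul_inv_eq_iff_eq_mul.1 ((MulAut.conj r).injective (by
    rw [MulAut.conj_apply, MulAut.conj_apply, rs]; group))
  have ru : r * u * r⁻¹ = u⁻¹ := by
    rw [← rr, mul_assoc, mul_right_inj] at xx
    calc _ = u⁻¹ * (u * (r * u)) * r⁻¹ := by group
      _ = _ := by rw [xx]; group
  rcases two_cases D.syl.pgroup uS with rfl | ⟨l, hl⟩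
  · exact fin (Or.inl (mul_one r))
  have L : ∀ g, Commute g t → r * u ^ 2 ^ l = g * c * g⁻¹ → u ^ 2 ^ l = t := fun g hg h1 => by
    have h2 : Commute r (u ^ 2 ^ l) := by
      rw [Commute, SemiconjBy, ← mul_inv_eq_iff_eq_mul, ← conj_pow, ru, inv_pow,
        inv_eq_of_mul_eq_one_right (half_sq hl)]
    have := D.comm_cl e hc cc hk hg (k1 ▸ h1 ▸ (Commute.refl r).mul_right h2)
    rw [← k1, ← h1, mul_mem_cancel_left (mem_zpowers r)] at this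
    exact (sq_root rr e.sq e.ne this (half_sq hl)).resolve_left (half_ne hl)
  rcases l with _ | l
  · have := L h hh (by simpa using hx)
    exact fin (Or.inr (by rw [← this]; simp))
  · refine absurd ?_ (e.l2 D.gs (us.pow_left (2 ^ l)))
    rw [← pow_add, ← two_mul, ← pow_succ']
    refine L _ ((((D.cm uS).pow_left (2 ^ l)).inv_left).mul_left hk) ?_
    have := inv_cj_zpow ru (-(2 ^ l : ℕ))
    rw [mul_neg, neg_neg, zpow_neg, zpow_natCast] at this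
    rw [pow_succ', ← zpow_natCast, Nat.cast_mul, Nat.cast_ofNat, ← this, k1]
    group

theorem exists_q : ∃ q ∈ S, q ∈ A ∧ y ∈ A ∧ q ∉ zpowers y ∧ q * y * q⁻¹ = y⁻¹ ∧ (∃ i : ℤ, Odd i ∧ q * s * q⁻¹ = s * y ^ i) ∧
    ∃ b ∈ zpowers y, b * b = t ∧ ∃ a, Commute a t ∧ q = a * b * a⁻¹ := by
  have tC : t ∈ centralizer (A : Set G) := fun a ha => e.le a (e.AP ha)
  have sN := e.nA s D.gs.cm
  obtain ⟨a, ha, h1, h2⟩ := e.za D.syl D.sS (e.gm_sq D.gs ▸ one_mem _) (e.gm_sq D.gs ▸ one_mem _) fun h =>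
    (e.cen s (e.gm_sq D.gs) D.gs.cm h).elim (e.gm_ne_one D.gs) D.gs.ne
  obtain ⟨i, hi⟩ := D.all _ h1 (D.gs.conj (e.le a (e.AP ha)))
  have wA : a * s * a⁻¹ * s⁻¹ ∈ A := by
    simpa [mul_assoc] using mul_mem ha (conj_mem_of_mem_normalizer sN (inv_mem ha))
  rw [hi, inv_zpow_cj (D.inv e)] at h2 wA
  obtain ⟨n, n1, n2⟩ := Nat.exists_not_and_succ_of_not_zero_of_exists
    (p := fun n => (y ^ (-i)) ^ 2 ^ n ∈ centralizer (A : Set G)) (by simpa using h2) ⟨m + 1, by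
      rw [← zpow_natCast, ← zpow_mul, D.dvd.2 ⟨-i, by push_cast; ring⟩]; exact one_mem _⟩
  rw [pow_succ, pow_mul, pow_two] at n2
  have hb := pow_mem (zpow_mem_zpowers y (-i)) (2 ^ n)
  have bA := pow_mem wA (2 ^ n)
  generalize (y ^ (-i)) ^ 2 ^ n = b at n1 n2 hb bA
  obtain ⟨a, ha, h1, h2⟩ := e.za D.syl (D.zle hb) (mul_mem bA bA) n2 n1
  have qA := mul_mem (mul_mem ha bA) (inv_mem ha)
  have qq : a * b * a⁻¹ * (a * b * a⁻¹) = b * b := by rw [conj_mul, Commute.mul_inv_cancel (n2 a ha)]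
  have qy : a * b * a⁻¹ ∉ zpowers y := fun h => h2 (by
    rcases D.eq_or e h hb qq with h | h <;> rw [h]
    exacts [mul_inv_cancel b ▸ one_mem _, (D.cm (D.zle hb)).mul_inv_cancel.symm ▸ tC])
  obtain ⟨h3, h4, j, hj, h5⟩ := (D.di e hb (fun h => n1 (by
    rcases D.invol e hb h with rfl | rfl
    exacts [one_mem _, tC])) (e.le a (e.AP ha)) rfl h1 (qq ▸ mul_mem hb hb)).resolve_left qy
  refine ⟨_, h1, qA, zpowers_le.2 ?_ (mem_zpowers_odd D.ord hj), qy, h4, ⟨j, hj, h5⟩, b, hb, qq ▸ h3, a,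
    e.le a (e.AP ha), rfl⟩
  rw [← inv_mul_eq_iff_eq_mul.2 h5, ← mul_assoc, ← mul_assoc]
  exact mul_mem (conj_mem_of_mem_normalizer' sN qA) (inv_mem qA)

end Dh

theorem Exc.exists_fr (e : Exc A P t) {s₀ : G} (h1 : IsConj t s₀) (h2 : Commute s₀ t) (h3 : s₀ ≠ t) :
    ∃ S s σ m, Fr A P t S s σ m := by
  have g : Gm t s₀ := ⟨h1, h2, h3⟩
  obtain ⟨S, hS, h4⟩ := exists_isSylowIn_ge (isPGroup_zpowers_of_pow (p := 2) (k := 1)
    (by rw [pow_one, pow_two, e.gm_sq g])) (zpowers_le.2 (mem_C.2 h2))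
  obtain ⟨y, m, D⟩ := e.exists_dh hS (h4 (mem_zpowers _)) g
  obtain ⟨q, qS, qA, yA, qy, qi, ⟨i, ⟨i, rfl⟩, qs⟩, b, hb, bb, a, ha, hq⟩ := D.exists_q e
  obtain ⟨n, rfl⟩ := D.one_le hb (bb ▸ e.ne)
  have qq : q * q = t := by rw [hq, conj_mul, bb, ha.mul_inv_cancel]
  have ss := e.gm_sq g
  obtain ⟨σ, rfl⟩ : ∃ σ, q = s₀ * σ := ⟨s₀⁻¹ * q, by group⟩
  have σS := (mul_mem_cancel_left D.sS).1 qS
  have h5 : σ ^ 2 = y ^ (2 * (i + 2 ^ n) + 1) := by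
    have : σ ^ 2 = s₀⁻¹ * (s₀ * σ * s₀ * (s₀ * σ)⁻¹) * (s₀ * σ * (s₀ * σ)) := by
      calc _ = σ * (s₀ * s₀) * σ := by rw [ss, mul_one, pow_two]
        _ = _ := by group
    rw [this, qs, qq, ← D.tpow e, ← zpow_natCast]
    push_cast
    group
  have hz : zpowers (σ ^ 2) = zpowers y := le_antisymm (zpowers_le.2 (h5 ▸ zpow_mem_zpowers _ _))
    (zpowers_le.2 (h5 ▸ mem_zpowers_odd D.ord (odd_two_mul_add_one _)))
  have qi' : s₀ * σ * σ ^ 2 * (s₀ * σ)⁻¹ = (σ ^ 2)⁻¹ := by rw [h5, inv_zpow_cj qi, zpow_neg]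
  have yA' : σ ^ 2 ∈ A := h5 ▸ zpow_mem yA _
  replace D := D.gen e (hz ▸ mem_zpowers _) (hz.symm ▸ mem_zpowers y)
  rw [← hz] at qy hb
  have hc : σ ^ 2 ^ (n + 1) ∈ zpowers (σ ^ 2) := by rw [pow_succ' 2 n, pow_mul]; exact npow_mem_zpowers _ _
  have tp : σ ^ 2 ^ (n + 2) = t := by rw [pow_succ', pow_mul, D.tpow e]
  have cc : σ ^ 2 ^ (n + 1) * σ ^ 2 ^ (n + 1) = t := by rw [← pow_add, ← two_mul, ← pow_succ', tp]
  have si : s₀ * σ * s₀⁻¹ = σ⁻¹ * t := by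
    calc _ = σ⁻¹ * (s₀⁻¹ * (s₀ * σ * (s₀ * σ)) * s₀⁻¹) := by group
      _ = _ := by rw [qq, e.gm_inv g, h2.eq, mul_assoc t, ss, mul_one]
  have cl : ∀ j : ℤ, ∃ h, Commute h t ∧ s₀ * σ * (σ ^ 2) ^ j = h * σ ^ 2 ^ (n + 1) * h⁻¹ := by
    have c0 : ∃ h, Commute h t ∧ s₀ * σ = h * σ ^ 2 ^ (n + 1) * h⁻¹ := by
      rcases D.eq_or e hb hc (bb.trans cc.symm) with h | h
      · exact ⟨a, ha, h ▸ hq⟩
      · refine ⟨a * s₀, ha.mul_left h2, ?_⟩
        have : σ ^ 2 ^ (n + 1) * t = s₀ * σ ^ 2 ^ (n + 1) * s₀⁻¹ :=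
          (eq_inv_of_mul_eq_one_right (by rw [← mul_assoc, cc, e.sq])).trans (D.inv' e hc).symm
        rw [hq, h, this]
        group
    obtain ⟨h, hh, h6⟩ := c0
    have ev : ∀ l : ℤ, ∃ h, Commute h t ∧ s₀ * σ * (σ ^ 2) ^ (2 * l) = h * σ ^ 2 ^ (n + 1) * h⁻¹ := fun l => by
      refine ⟨(σ ^ 2) ^ (-l) * h, ((D.cm D.yS).zpow_left _).mul_left hh, ?_⟩
      have := inv_cj_zpow qi' (-l)
      rw [mul_neg, neg_neg] at this
      rw [← this, h6]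
      group
    intro j
    rcases Int.even_or_odd' j with ⟨l, rfl | rfl⟩
    · exact ev l
    · obtain ⟨k, hk, h7⟩ := ev (2 ^ n - l - 1)
      refine ⟨s₀ * k, h2.mul_left hk, ?_⟩
      have h8 : s₀ * (s₀ * σ) * s₀⁻¹ = s₀ * σ * (σ ^ 2) ^ (2 * 2 ^ n - 1 : ℤ) := by
        rw [mul_assoc s₀, si, ← D.tpow e, ← zpow_natCast, ← zpow_natCast σ, ← zpow_mul, ← zpow_mul]
        push_cast
        group
      calc _ = s₀ * (s₀ * σ) * s₀⁻¹ * (s₀ * (σ ^ 2) ^ (2 * (2 ^ n - l - 1)) * s₀⁻¹) := by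
            rw [h8, inv_zpow_cj (D.inv e), mul_assoc (s₀ * σ), ← zpow_add]
            congr 2
            ring
        _ = _ := by rw [conj_mul, h7]; group
  have pw : ∀ j : ℤ, s₀ * σ ^ (2 * j + 1) = s₀ * σ * (σ ^ 2) ^ j := fun j => by
    rw [← zpow_natCast, ← zpow_mul]; group
  refine ⟨S, s₀, σ, n + 2, hS, by omega, D.sS, σS, h1, h3, ?_, tp, si, qA, yA', fun x hx h => ?_,
    fun h hh hx => ?_, fun j => pw j ▸ cl j, fun z hz h4 h hh hx => ?_, fun u hu uP us => D.f4 e hc cc hu uP us⟩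
  · obtain ⟨k, hk⟩ := (two_cases hS.pgroup σS).resolve_left (by rintro rfl; exact e.ne (by simpa using tp.symm))
    rw [hk, Nat.pow_right_injective le_rfl ((ord_sq hk).symm.trans (pow_two σ ▸ D.ord))]
  · refine or_iff_not_imp_left.2 fun hne => (D.all x hx ⟨h, D.cm hx, hne⟩).imp fun j hj => ?_
    rw [hj, zpow_mul, zpow_ofNat]
  · exact (D.four e hc cc qS qy cl hh rfl hx).imp id fun ⟨j, hj⟩ => ⟨j, hj.trans (pw j).symm⟩
  · obtain ⟨k, hk⟩ := isPGroup_zpowers_iff.1 (isPGroup_zpowers_of_mem hS.pgroup (D.zle hz))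
    obtain ⟨k, rfl⟩ : ∃ l, k = l + 3 := Nat.exists_eq_add_of_le' (not_lt.1 fun hl => h4
      (orderOf_dvd_iff_pow_eq_one.1 (hk ▸ pow_dvd_pow 2 (Nat.le_of_lt_succ hl))))
    exact D.big e hh k z hz hk hx

end CfsgLib.StdExc
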